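import Mathlib
import Cfsg.Agent.Lib.Helper18.AutPSp.Gen2
import Cfsg.Agent.Lib.Helper18.AutPSL.Card
import Cfsg.Agent.Lib.Helper1.PSpAut.Main
import Cfsg.Agent.Lib.Helper17.SympCenter

set_option autoImplicit false

/-!
The group `PΓSp_{2m}(F)` inside `Aut(PSp_{2m}(F))`: it consists of the automorphisms preserving
transvections; its order.
-/

namespace Cfsg.Agent.Lib.Helper18.AutPSp

open Matrix Cfsg.Agent.Lib.Helper17
open Cfsg.Agent.Lib.Helper1.PSpAut (cG cS fl fldS cS_eq_of_mul cG_pm fl_pm fldS_val eq_of_isInduced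
  isInduced_cG_fl mu mu_surjective ofSp ofSp_val mu_ofSp exists_ofSp_of_mu sc sc_val cG_sc
  exists_smul_of_cG_eq_one)

variable {F : Type*} [Field F] {m : ℕ}

theorem fldS_ac (σ : F ≃+* F) (s : Sp m F) (x : V m F) :
    fldS σ s ∙ (fun k => σ (x k)) = fun k => σ ((s ∙ x) k) := by
  funext i
  exact (RingHom.map_mulVec (σ : F →+* F) s.1 x i).symm

theorem fldS_tv (σ : F ≃+* F) (v : V m F) (a : F) :
    fldS σ (tv v a) = tv (fun k => σ (v k)) (σ a) := by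
  apply sp_ext
  intro x
  have hx : x = fun k => σ (σ.symm (x k)) := by funext k; simp
  conv_lhs => rw [hx]
  rw [fldS_ac, ac_tv, ac_tv]
  funext k
  simp only [Pi.add_apply, Pi.smul_apply, smul_eq_mul, map_add, map_mul, B_map]
  simp

theorem cS_tv (g : ↥(Cfsg.GSp m F)) {c : Fˣ}
    (hc : ∀ u v, B (g.1.1 *ᵥ u) (g.1.1 *ᵥ v) = (c : F) * B u v) (v : V m F) (a : F) :
    cS g (tv v a) = tv (g.1.1 *ᵥ v) (a * (c : F)⁻¹) := by
  apply cS_eq_of_mul
  rw [Matrix.ext_iff_mulVec]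
  intro x
  rw [← Matrix.mulVec_mulVec, ← Matrix.mulVec_mulVec]
  have h1 : (tv (g.1.1 *ᵥ v) (a * (c : F)⁻¹)).1 *ᵥ (g.1.1 *ᵥ x) =
      tv (g.1.1 *ᵥ v) (a * (c : F)⁻¹) ∙ (g.1.1 *ᵥ x) := rfl
  have h2 : (tv v a).1 *ᵥ x = tv v a ∙ x := rfl
  rw [h1, h2, ac_tv, ac_tv, hc, Matrix.mulVec_add, Matrix.mulVec_smul]
  congr 2
  have := c.ne_zero
  field_simp

theorem isTv_cG (g : ↥(Cfsg.GSp m F)) {t : Cfsg.PSp m F} (h : IsTv t) : IsTv (cG g t) := by
  obtain ⟨v, a, rfl⟩ := h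
  obtain ⟨c, hc⟩ := g.2
  exact ⟨_, _, by rw [cG_pm, cS_tv g hc]⟩

theorem isTv_fl (σ : F ≃+* F) {t : Cfsg.PSp m F} (h : IsTv t) : IsTv (fl σ t) := by
  obtain ⟨v, a, rfl⟩ := h
  exact ⟨_, _, by rw [fl_pm, fldS_tv]⟩

theorem TvP.mul {β β' : MulAut (Cfsg.PSp m F)} (h : TvP β) (h' : TvP β') : TvP (β * β') :=
  ⟨fun t ht => h.fwd _ (h'.fwd t ht), fun t ht => by
    rw [_root_.mul_inv_rev]
    exact h'.bwd _ (h.bwd t ht)⟩

theorem TvP.one : TvP (1 : MulAut (Cfsg.PSp m F)) :=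
  ⟨fun t ht => ht, fun t ht => by rw [inv_one]; exact ht⟩

theorem tvP_cG (g : ↥(Cfsg.GSp m F)) : TvP (cG g) :=
  ⟨fun _ ht => isTv_cG g ht, fun _ ht => by rw [← map_inv]; exact isTv_cG _ ht⟩

theorem tvP_fl (σ : F ≃+* F) : TvP (fl σ : MulAut (Cfsg.PSp m F)) :=
  ⟨fun _ ht => isTv_fl σ ht, fun _ ht => by rw [← map_inv]; exact isTv_fl _ ht⟩

theorem tvP_of_mem_gamma {β : MulAut (Cfsg.PSp m F)} (h : β ∈ Cfsg.gammaPSp m F) : TvP β := by
  induction h using Subgroup.closure_induction with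
  | mem x hx =>
    obtain ⟨g, σ, hg, hind⟩ := hx
    rw [eq_of_isInduced hg hind]
    exact (tvP_cG _).mul (tvP_fl σ)
  | one => exact TvP.one
  | mul x y _ _ hx hy => exact hx.mul hy
  | inv x _ hx => exact hx.symm

theorem exists_cG_fl_of_tvP [Fintype F] (p : ℕ) [Fact p.Prime] [CharP F p] (hm : 2 ≤ m)
    {β : MulAut (Cfsg.PSp m F)} (h : TvP β) : ∃ (g : ↥(Cfsg.GSp m F)) (σ : F ≃+* F), β = cG g * fl σ := by
  obtain ⟨g, σ, hg, hind⟩ := aut_form_g p hm β h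
  exact ⟨⟨g, hg⟩, σ, eq_of_isInduced hg hind⟩

theorem mem_gamma_iff [Fintype F] (p : ℕ) [Fact p.Prime] [CharP F p] (hm : 2 ≤ m)
    {β : MulAut (Cfsg.PSp m F)} : β ∈ Cfsg.gammaPSp m F ↔ TvP β :=
  ⟨tvP_of_mem_gamma, fun h => Subgroup.subset_closure (aut_form_g p hm β h)⟩

/-- rigidity -/
theorem sigma_eq_one_of_cG_eq_fl (p : ℕ) [Fact p.Prime] [CharP F p] (hm : 1 ≤ m)
    {g : ↥(Cfsg.GSp m F)} {σ : F ≃+* F} (h : cG g = fl σ) : σ = 1 := by
  obtain ⟨c, hc⟩ := g.2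
  set e : V m F := eb ⟨0, hm⟩ with he
  have he0 : e ≠ 0 := eb_ne_zero _
  have hσe : (fun k => σ (e k)) = e := by
    funext k
    rw [he, eb]
    by_cases hk : k = Sum.inl ⟨0, hm⟩
    · rw [hk]; simp
    · rw [Pi.single_eq_of_ne hk, map_zero]
  have key : ∀ a : F, tv (g.1.1 *ᵥ e) (a * (c : F)⁻¹) = tv e (σ a) := by
    intro a
    have h1 : cG g (pm (tv e a)) = fl σ (pm (tv e a)) := by rw [h]
    rw [cG_pm, fl_pm, cS_tv g hc, fldS_tv, hσe] at h1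
    exact eq_of_pm_eq p hm h1 (tv_pow_char p _ _) (tv_pow_char p _ _)
  have h1 := key 1
  rw [map_one, one_mul] at h1
  obtain ⟨l, hl0, hl⟩ := parallel_of_tv_eq h1.symm he0 one_ne_zero
  have h2 : ∀ a : F, l ^ 2 * (a * (c : F)⁻¹) = σ a := by
    intro a
    have := key a
    rw [hl, tv_smul] at this
    exact tv_inj_right he0 this
  have h3 := h2 1
  rw [map_one, one_mul] at h3
  ext a
  rw [← h2 a, mul_left_comm, h3, mul_one]
  rfl

/-! ### cardinalities -/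

theorem card_ringAut [Fintype F] {p f : ℕ} [Fact p.Prime] (hF : Fintype.card F = p ^ f) :
    Nat.card (F ≃+* F) = f := by
  have hchar : CharP F p := charP_of_card_eq_prime_pow hF
  let _ : Algebra (ZMod p) F := ZMod.algebra F p
  rw [← Cfsg.Agent.Lib.Helper18.AutPSL.card_gal hF]
  symm
  apply Nat.card_congr
  refine Equiv.ofBijective (fun σ : F ≃ₐ[ZMod p] F => σ.toRingEquiv) ⟨?_, ?_⟩
  · intro a b h
    ext x
    exact congrArg (fun φ : F ≃+* F => φ x) h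
  · intro σ
    exact Cfsg.Agent.Lib.Helper18.AutPSL.exists_algEquiv p σ

theorem card_range_cG [Fintype F] (hm : 0 < m) :
    Nat.card (cG : ↥(Cfsg.GSp m F) →* _).range = Nat.card (Sp m F) := by
  have h1 := Cfsg.Agent.Lib.Helper18.AutPSL.card_eq_of_surjective (mu hm : ↥(Cfsg.GSp m F) →* Fˣ)
    (mu_surjective hm)
  have h2 := Subgroup.card_mul_index (cG : ↥(Cfsg.GSp m F) →* _).ker
  rw [Subgroup.index_ker] at h2
  have h3 : Nat.card (mu hm : ↥(Cfsg.GSp m F) →* Fˣ).ker = Nat.card (Sp m F) := by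
    symm
    apply Nat.card_congr
    refine Equiv.ofBijective (fun x : Sp m F => (⟨ofSp x, mu_ofSp hm x⟩ :
      (mu hm : ↥(Cfsg.GSp m F) →* Fˣ).ker)) ⟨?_, ?_⟩
    · intro a b h
      apply Subtype.ext
      have := congrArg (fun z : (mu hm : ↥(Cfsg.GSp m F) →* Fˣ).ker => z.1.1.1) h
      exact this
    · rintro ⟨g, hg⟩
      obtain ⟨x, rfl⟩ := exists_ofSp_of_mu hm g hg
      exact ⟨x, rfl⟩
  have h4 : Nat.card (cG : ↥(Cfsg.GSp m F) →* _).ker = Nat.card Fˣ := by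
    symm
    apply Nat.card_congr
    refine Equiv.ofBijective (fun a : Fˣ => (⟨sc (a : F) a.ne_zero, cG_sc _ _⟩ :
      (cG : ↥(Cfsg.GSp m F) →* _).ker)) ⟨?_, ?_⟩
    · intro a b h
      have h5 := congrArg (fun z : (cG : ↥(Cfsg.GSp m F) →* _).ker => z.1.1.1) h
      simp only [sc_val] at h5
      have h6 := congrFun (congrFun h5 (Sum.inl ⟨0, hm⟩)) (Sum.inl ⟨0, hm⟩)
      simp only [Matrix.smul_apply, Matrix.one_apply_eq, smul_eq_mul, mul_one] at h6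
      exact Units.ext h6
    · rintro ⟨g, hg⟩
      obtain ⟨a, ha, h5⟩ := exists_smul_of_cG_eq_one hm hg
      refine ⟨Units.mk0 a ha, ?_⟩
      apply Subtype.ext
      apply Subtype.ext
      apply Units.ext
      show (sc a ha : ↥(Cfsg.GSp m F)).1.1 = g.1.1
      rw [sc_val, h5]
  rw [h3] at h1
  rw [h4, h1, mul_comm] at h2
  exact Nat.eq_of_mul_eq_mul_right Nat.card_pos h2

theorem card_sp [Fintype F] {q : ℕ} (hF : Fintype.card F = q) (hm : 1 ≤ m) :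
    Nat.card (Sp m F) = Nat.gcd 2 (q - 1) * Nat.card (Cfsg.PSp m F) := by
  rw [← Cfsg.Agent.Lib.Helper17.SympCenter.card_center hF m hm, mul_comm]
  exact Subgroup.card_eq_card_quotient_mul_card_subgroup _

theorem card_gamma [Fintype F] {p f : ℕ} [Fact p.Prime] (hF : Fintype.card F = p ^ f) (hm : 2 ≤ m) :
    Nat.card ↥(Cfsg.gammaPSp m F) = Nat.gcd 2 (p ^ f - 1) * f * Nat.card (Cfsg.PSp m F) := by
  have hchar : CharP F p := charP_of_card_eq_prime_pow hF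
  have key : Nat.card ↥(Cfsg.gammaPSp m F) =
      Nat.card ((cG : ↥(Cfsg.GSp m F) →* MulAut (Cfsg.PSp m F)).range × (F ≃+* F)) := by
    symm
    apply Nat.card_congr
    refine Equiv.ofBijective (fun x : (cG : ↥(Cfsg.GSp m F) →* MulAut (Cfsg.PSp m F)).range × (F ≃+* F) =>
      (⟨x.1.1 * fl x.2, ?_⟩ : ↥(Cfsg.gammaPSp m F))) ⟨?_, ?_⟩
    · obtain ⟨g, hg⟩ := x.1.2
      rw [(mem_gamma_iff p hm), ← hg]
      exact (tvP_cG g).mul (tvP_fl _)
    · rintro ⟨⟨_, g, rfl⟩, σ⟩ ⟨⟨_, g', rfl⟩, σ'⟩ h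
      have h1 : cG g * fl σ = cG g' * fl σ' := congrArg Subtype.val h
      have h2 : cG (g'⁻¹ * g) = fl (σ' * σ⁻¹) := by
        rw [map_mul, map_mul, map_inv, map_inv, inv_mul_eq_iff_eq_mul, ← mul_assoc, ← h1,
          mul_inv_cancel_right]
      have h3 := sigma_eq_one_of_cG_eq_fl p (by omega) h2
      have h4 : σ' = σ := mul_inv_eq_one.1 h3
      subst h4
      have h5 : cG g = cG g' := mul_right_cancel h1
      simp only [h5]
    · rintro ⟨β, hβ⟩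
      obtain ⟨g, σ, rfl⟩ := exists_cG_fl_of_tvP p hm ((mem_gamma_iff p hm).1 hβ)
      exact ⟨⟨⟨cG g, g, rfl⟩, σ⟩, rfl⟩
  rw [key, Nat.card_prod, card_range_cG (by omega), card_ringAut hF, card_sp hF (by omega)]
  ring

end Cfsg.Agent.Lib.Helper18.AutPSp
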